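import Cfsg.Agent.Co1T.C0
import Cfsg.Agent.Mon.Cent
import Cfsg.Agent.Spor.MAct

/-! Computations in `Co₁` with matrix codes: lower bounds on classes mod `2Λ` (`le_card`), alternating subgroups
(`carm_of`), direct products (`prod_iso`), monomial centralisers (`bnd_le`) (helper23). -/

set_option autoImplicit false

namespace Cfsg.Agent.Co1R

open Cfsg.Agent.Comp Cfsg.Agent.Golay Cfsg.Agent.Leech Cfsg.Agent.BG Cfsg.Agent.Mon Cfsg.Agent.Co1T MulAction Subgroup

variable {a b c p : ℕ} {g k x : CG} {L W : List ℕ}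

theorem prod_iso {G A B : Type*} [Group G] [Group A] [Group B] [Finite G] {f : A →* G} {h : B →* G}
    (hf : Function.Injective f) (hh : Function.Injective h) (hc : ∀ a b, Commute (f a) (h b)) (hZ : center B = ⊥)
    {K : Subgroup G} (h1 : f.range ≤ K) (h2 : h.range ≤ K) (h3 : #K ≤ Nat.card A * Nat.card B) : Nonempty (K ≃* A × B) := by
  let φ := (f.noncommCoprod h hc).codRestrict K fun u => K.mul_mem (h1 ⟨_, rfl⟩) (h2 ⟨_, rfl⟩)
  have i : Function.Injective φ := (injective_iff_map_eq_one φ).2 fun u e => by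
    have e : f u.1 * h u.2 = 1 := congrArg Subtype.val e
    have : u.2 = 1 := mem_bot.1 (hZ ▸ mem_center_iff.2 fun b => hh (by
      rw [map_mul, map_mul, eq_inv_of_mul_eq_one_right e]; exact (hc _ b).inv_left.symm.eq))
    rw [this, map_one, mul_one] at e
    exact Prod.ext ((injective_iff_map_eq_one f).1 hf _ e) this
  exact ⟨(MulEquiv.ofBijective φ (i.bijective_of_nat_card_le (by rwa [Nat.card_prod]))).symm⟩

theorem card_comap (K : Subgroup CC) : #(K.comap mk1) = 2 * #K := by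
  have := card_mul_card_ker (ψ := mk1.subgroupComap K) fun ⟨y, hy⟩ => by
    obtain ⟨x, rfl⟩ := QuotientGroup.mk'_surjective _ y
    exact ⟨⟨x, hy⟩, rfl⟩
  rw [← this, mul_comm]
  congr 1
  have o : orderOf negC = 2 := orderOf_eq_prime (by rw [pow_two, negC_sq]) negC_ne
  have l : zpowers negC ≤ K.comap mk1 := zpowers_le.2 (by rw [mem_comap, mk1_neg]; exact one_mem _)
  rw [← o, ← Nat.card_zpowers, ← card_subgroupOf l]
  congr 2
  ext y
  rw [MonoidHom.mem_ker, Subtype.ext_iff, mem_subgroupOf, Invol.mem_zpowers_invol negC_sq]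
  exact mk1_eq_one

theorem comap_cent (hp : Odd p) (hb : g ^ p = 1) : C1[mk1 g].comap mk1 = C1[g] := by
  ext k
  rw [mem_comap, mem_cent1, mem_cent1]
  refine ⟨fun h => ?_, fun h => by rw [← map_mul, h, map_mul]⟩
  have : mk1 g = mk1 (k * g * k⁻¹) := by rw [map_mul, map_mul, map_inv, h, mul_inv_cancel_right]
  refine mul_inv_eq_iff_eq_mul.1 ((mk1_eq.1 this).resolve_right fun e => negC_ne ?_)
  have : (k * g * k⁻¹) ^ p = 1 := by rw [conj_pow, hb]; simp
  obtain ⟨n, rfl⟩ := hp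
  rwa [e, Commute.mul_pow (negC_comm g), hb, one_mul, pow_succ, pow_mul, pow_two, negC_sq, one_pow, one_mul] at this

theorem ord_mk (hp : p.Prime) (p2 : p ≠ 2) (h : orderOf g = p) : orderOf (mk1 g) = p := by
  have : Fact p.Prime := ⟨hp⟩
  refine orderOf_eq_prime (by rw [← map_pow, ← h, pow_orderOf_eq_one, map_one]) fun e => ?_
  rcases mk1_eq_one.1 e with rfl | rfl
  · exact hp.ne_one (h.symm.trans orderOf_one)
  · exact p2 (h.symm.trans (orderOf_eq_prime (by rw [pow_two, negC_sq]) negC_ne))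

noncomputable def el (c : ℕ) : CG := if h : okC c = true then eltC c h else 1
theorem RC_el (h : okC c = true) : RC c (el c) := by rw [el, dif_pos h]; exact RC_eltC _ _
theorem el_eq (h : okC c = true) (r : RC c g) : el c = g := canC.func (RC_el h) r

def eqPM (a b : ℕ) : Bool := bor (Nat.beq a b) (Nat.beq a (mulC b (sgC (2 ^ 24 - 1))))
theorem eqPM_spec (ha : RC a g) (hb : RC b k) (h : eqPM a b = true) : mk1 k = mk1 g := by
  rw [eqPM, bor_eq, Bool.or_eq_true, nbeq, nbeq] at h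
  rcases h with rfl | rfl
  exacts [congrArg mk1 (canC.func hb ha), mk1_eq.2 (.inr (canC.func ha (RC_neg hb)))]

def chainK (W : List ℕ) (fuel : ℕ) (B : List (ℕ × ℕ)) : List ℕ → ℕ :=
  List.rec (motive := fun _ => List ℕ → ℕ) (fun _ => 1) (fun b _ ih L =>
    Nat.mul (lenL (orbitL actV (sigC W) (fun _ => true) (List.take b.2 L) fuel b.1))
      (ih (filterL (fun c => Nat.beq (sigC latGens (actV c b.1)) (sigC latGens b.1)) L))) B

theorem chainK_le (hW : Val W) (fuel : ℕ) (B : List (ℕ × ℕ)) (hB : ∀ b ∈ B, inL b.1 = true) :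
    ∀ (L : List ℕ) (K : Subgroup CG), CodesIn RC L K → negC ∈ K → chainK W fuel B L * 2 ≤ #K := by
  induction B with
  | nil =>
    intro L K _ h
    have o : orderOf negC = 2 := orderOf_eq_prime (by rw [pow_two, negC_sq]) negC_ne
    exact (one_mul 2).le.trans (o ▸ Nat.card_zpowers negC ▸ card_le_card (zpowers_le.2 h))
  | cons b B ih =>
    intro L K hK h
    have hb : keyQ.P b.1 (cl (vec _ (hB b List.mem_cons_self))) := ⟨_, PV_vec _ _, rfl⟩
    rw [card_eq_ncard_orbit_mul K (cl (vec _ (hB b List.mem_cons_self)))]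
    refine (Nat.mul_assoc _ _ _).le.trans (Nat.mul_le_mul (orbitL_le_ncard keyQ.isAct
      (fun c hc => hK c (List.mem_of_mem_take hc)) hb ?_ (Set.finite_range _))
      (ih (fun b hb => hB b (List.mem_cons_of_mem _ hb)) _ _ (fun c hc => ?_) ⟨h, ?_⟩))
    · rintro _ _ _ ⟨x, hx, rfl⟩ ⟨y, hy, e⟩
      rw [sigC_eq hW hx, sigC_eq hW hy]; exact (cl_eq.1 e).sigX
    · rw [filterL_eq, List.mem_filter, nbeq] at hc
      obtain ⟨g, hg, hr⟩ := hK c hc.1
      exact ⟨g, ⟨hg, (Keyed.smul_eq_iff hr hb hb).2 hc.2⟩, hr⟩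
    · exact cl_eq.2 (by beta_reduce; rw [negC_smul]; exact cg_neg _)

theorem le_card {K : Subgroup CC} (h : CodesIn RC L (K.comap mk1)) (ws : List (List ℕ)) (W : List ℕ) (fuel : ℕ)
    (B : List (ℕ × ℕ)) {n : ℕ} (e : band (band (allL W inL) (allL B fun b => inL b.1))
      (forceL (slpW mulC invC oneC ws L) fun L' => Nat.ble n (chainK W fuel B L')) = true) : n ≤ #K := by
  simp only [band_eq, Bool.and_eq_true, forceL_eq, nble] at e
  have := chainK_le (val_of e.1.1) fuel B (allL_iff.1 e.1.2) _ _ (grpC.slpW ws h) (by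
    rw [mem_comap, mk1_neg]; exact one_mem _)
  rw [card_comap] at this; omega

theorem carm_of {n : ℕ} (hn : 3 ≤ n) (h : allLt n (fun i => force (nthL 0 L i) fun c => band (band (okC c)
      (band (Nat.beq (powC mulC oneC c 3) oneC) (not (Nat.beq c oneC))))
      (allLt i fun j => force (mulC (nthL 0 L j) c) fun t => eqPM (mulC t t) oneC)) = true) :
    ∃ f : alternatingGroup (Fin (n + 2)) →* CC, Function.Injective f ∧ (∀ i < n, mk1 (el (nthL 0 L i)) ∈ f.range) ∧
      ∀ K : Subgroup CC, (∀ i < n, mk1 (el (nthL 0 L i)) ∈ K) → f.range ≤ K := by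
  simp only [allLt_iff, force_eq, band_eq, Bool.and_eq_true, Bool.not_eq_true', nbeq_false] at h
  have r := fun i hi => RC_el (h i hi).1.1
  obtain ⟨f, h1, -⟩ := Spor.carm_hom (y := fun i => mk1 (el (nthL 0 L i))) (n := n) fun w hw => by
    obtain ⟨i, hi, hw⟩ := List.mem_flatMap.1 hw
    rw [List.mem_range] at hi
    rcases List.mem_cons.1 hw with rfl | hw
    · have := congrArg mk1 (pow_RC (r i hi) (h i hi).1.2.1)
      simpa [Spor.ev, pow_succ] using this
    · obtain ⟨j, hj, rfl⟩ := List.mem_map.1 hw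
      rw [List.mem_range] at hj
      have t := grpC.mul (r j (hj.trans hi)) (r i hi)
      simpa [Spor.ev, mul_assoc] using (eqPM_spec (grpC.mul t t) grpC.one ((h i hi).2 j hj)).symm
  have m : ∀ i < n, mk1 (el (nthL 0 L i)) ∈ f.range := fun i hi => h1 ▸ Spor.mem_genL _ (List.mem_range.2 hi)
  refine ⟨f, ?_, m, fun K hK => h1 ▸ Spor.genL_le fun i hi => hK i (List.mem_range.1 hi)⟩
  have := alternatingGroup.isSimpleGroup (α := Fin (n + 2)) (by simp; omega)
  refine (MonoidHom.ker_eq_bot_iff f).1 (f.normal_ker.eq_bot_or_eq_top.resolve_right fun e => ?_)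
  obtain ⟨u, hu⟩ := m 0 (by omega)
  have : Fact (Nat.Prime 3) := ⟨Nat.prime_three⟩
  have := ord_mk Nat.prime_three (by decide) (orderOf_eq_prime (pow_RC (r 0 (by omega)) (h 0 (by omega)).1.2.1)
    fun e => (h 0 (by omega)).1.2.2 (canC.canon (r 0 (by omega)) (e ▸ grpC.one)))
  rw [← hu, show f u = 1 from e.ge (mem_top u), orderOf_one] at this
  cases this

theorem mem_cent_of (ha : RC a g) (hb : RC b k) (h : commC mulC a b = true) : mk1 g ∈ C1[mk1 k] :=
  mem_cent1.2 (Commute.map ((commC_iff grpC canC ha hb).2 h) mk1)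

/-! ### monomial elements commuting with `x` -/

def sE (i : ℕ) : ℕ := bif' (Nat.blt i 24) (e8C i) (Nat.sub OO (Nat.shiftLeft 8 (Nat.mul 9 (Nat.sub i 24))))
theorem sE_spec : ∀ j : GolayPt, (EG.enc j < 48 ∧ PV (sE (EG.enc j)) (e8 j)) ∧ EG.enc j + 24 < 48 ∧ PV (sE (EG.enc j + 24)) (-e8 j) := by
  refine fun j => ⟨⟨by revert j; decide +kernel, ?_, (sqNorm_e8 j).le⟩, by revert j; decide +kernel, ?_,
    (nm_neg _).trans_le (sqNorm_e8 j).le⟩ <;> revert j <;> decide +kernel
def cnt (cx : ℕ) (F : List ℕ) (j : ℕ) : ℕ := countLt 48 fun i => band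
  (Nat.beq (dotO (sE i) (actV cx (sE i))) (dotO (e8C j) (actV cx (e8C j)))) (allL F fun f => Nat.beq (dotO (sE i) f) (dotO (e8C j) f))
def bnd (cx : ℕ) (ps : List ℕ) : List ℕ → ℕ := List.rec (motive := fun _ => List ℕ → ℕ) (fun _ => 1)
  (fun j _ ih F => Nat.mul (cnt cx F j) (forceL (appendL (iterL cx 7 (e8C j)) F) ih)) ps

theorem iter_fix (hx : RC c x) {K : Subgroup CG} (hK : K ≤ C1[x]) (n : ℕ) : ∀ a y, PV a y → (∀ g ∈ K, g • y = y) →
    ∀ f ∈ iterL c n a, ∃ y, PV f y ∧ ∀ g ∈ K, g • y = y := by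
  induction n with
  | zero => exact fun _ _ _ _ _ h => absurd h List.not_mem_nil
  | succ n ih =>
    intro a y h1 h2 f hf
    rw [show iterL c (n + 1) a = a :: iterL c n (actV c a) from congrArg (a :: ·) (force_eq _ _)] at hf
    rcases List.mem_cons.1 hf with rfl | hf
    exacts [⟨y, h1, h2⟩, ih _ _ (isActV hx h1) (fun g hg => by rw [← mul_smul, mem_cent1.1 (hK hg), mul_smul, h2 g hg]) f hf]

theorem bnd_le (hx : RC c x) (ps : List ℕ) (hp : ∀ j ∈ ps, j < 24) : ∀ (F : List ℕ) (K : Subgroup CG), K ≤ C1[x] → K ≤ NN →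
    (∀ f ∈ F, ∃ y, PV f y ∧ ∀ g ∈ K, g • y = y) → (∀ g ∈ K, (∀ j ∈ ps, g • e8 (EG.dec j) = e8 (EG.dec j)) → g = 1) →
    #K ≤ bnd c ps F := by
  induction ps with
  | nil => exact fun F K _ _ _ h => (card_eq_one.2 (eq_bot_iff.2 fun g hg => h g hg fun _ h => absurd h List.not_mem_nil)).le
  | cons j ps ih =>
    intro F K h1 h2 h3 h4
    have pj := PV_e8 (EG.dec j)
    rw [EG.enc_dec j (hp j List.mem_cons_self)] at pj
    rw [card_eq_ncard_orbit_mul K (e8 (EG.dec j))]
    refine Nat.mul_le_mul ?_ ((ih (fun j h => hp j (List.mem_cons_of_mem _ h)) _ (K ⊓ stabilizer CG (e8 (EG.dec j))) (inf_le_left.trans h1) (inf_le_left.trans h2)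
      (fun f hf => ?_) fun g hg h => h4 g hg.1 (List.forall_mem_cons.2 ⟨hg.2, h⟩)).trans (forceL_eq _ _).ge)
    · rw [cnt, countLt_eq, ← Set.ncard_coe_finset]
      refine (Set.ncard_le_ncard ?_ ((Finset.finite_toSet _).image fun i => vc (sE i))).trans (Set.ncard_image_le (Finset.finite_toSet _))
      rintro _ ⟨g, rfl⟩
      obtain ⟨i, hi, e⟩ : ∃ i < 48, PV (sE i) (g.1 • e8 (EG.dec j)) := by
        obtain ⟨i, e | e⟩ := cross_of_mem_NN (h2 g.2) (EG.dec j) <;> rw [e]
        exacts [⟨_, (sE_spec i).1⟩, ⟨_, (sE_spec i).2⟩]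
      refine ⟨i, ?_, vc_eq e⟩
      simp only [Finset.coe_filter, Finset.mem_range, Set.mem_ofPred_eq, band_eq, Bool.and_eq_true, nbeq, allL_iff]
      refine ⟨hi, Int.natCast_inj.1 ?_, fun f hf => Int.natCast_inj.1 ?_⟩
      · rw [e.dot (isActV hx e), pj.dot (isActV hx pj), ← mul_smul, ← mem_cent1.1 (h1 g.2), mul_smul, dot_act]
      · obtain ⟨y, k1, k2⟩ := h3 f hf
        rw [e.dot k1, pj.dot k1, ← dot_act g.1 (e8 _) y, k2 g g.2]
    · rw [appendL_eq, List.mem_append] at hf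
      exact hf.elim (iter_fix hx (K := K ⊓ stabilizer CG (e8 (EG.dec j))) (inf_le_left.trans h1) 7 _ _ pj (fun g hg => hg.2) f)
        fun hf => let ⟨y, k1, k2⟩ := h3 f hf; ⟨y, k1, fun g hg => k2 g hg.1⟩

end Cfsg.Agent.Co1R
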