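import Cfsg.Agent.Co1T.M1
import Cfsg.Agent.S0824

/-! Elements of order 3 and 5 of `Ω⁺(8,2)` with a fixed space of minus type (`Std`, `std3`, `std5`): restriction
`res` to the fixed space, centralisers, conjugacy (helper23). -/

set_option autoImplicit false
set_option maxRecDepth 100000
set_option synthInstance.maxSize 4096

namespace Cfsg.Agent.Co1R

open Cfsg.Agent.Geom Cfsg.Agent.Geom.Formed Cfsg.Agent.Co1A QuadraticMap Subgroup Module

abbrev Vm (m : ℕ) : Type := (Fin m ⊕ Fin m) ⊕ Fin 2 → ZMod 2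
noncomputable abbrev qm (m : ℕ) : QuadraticForm (ZMod 2) (Vm m) := quadMinus (ZMod 2) m 1 1
abbrev Lm (m : ℕ) : Type := commutator (OG (qm m))

theorem hab : ∀ z₁ z₂ : ZMod 2, z₁ ^ 2 + 1 * z₁ * z₂ + 1 * z₂ ^ 2 = 0 → z₁ = 0 ∧ z₂ = 0 := by decide
theorem ndm (m : ℕ) : (ofQuad (qm m)).Nondeg := quadMinus_nondeg (ZMod 2) m (disc_ne_zero_of_anisotropic hab)
theorem rkm (m : ℕ) : finrank (ZMod 2) (Vm m) = 2 * m + 2 := by simp; omega
theorem nexm (m : ℕ) : NotExc (qm m) := by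
  by_cases h : m = 1
  · exact .inr (.inr fun k => by have := k.unique (quadMinus_wittIndex (ZMod 2) m hab); omega)
  · exact .inr (.inl (by rw [rkm]; omega))
theorem idxm (m : ℕ) : (commutator (OG (qm m))).index = 2 := index_commutator_even (ndm m) (nexm m) rfl (by rw [rkm]; omega)
instance finOm (m : ℕ) : Finite (OG (qm m)) :=
  Finite.of_injective (fun g : OG (qm m) => (g.1 : Vm m → Vm m)) fun _ _ h => OG.ext (congrFun h)
theorem omega_m (m : ℕ) : Nonempty (Lm m ≃* Omega (ZMod 2) (quadFormMinus m (ZMod 2) 1 1)) := by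
  rw [← coe_quadMinus]; exact ⟨(omegaEquiv _).symm⟩
theorem card_L (m : ℕ) : 2 * Nat.card (Lm m) =
    2 * 2 ^ ((m + 1) * m) * (2 ^ (m + 1) + 1) * ∏ i ∈ Finset.range m, (2 ^ (2 * (i + 1)) - 1) := by
  have h1 := (commutator (OG (qm m))).index_mul_card
  rwa [idxm, card_isom_minus m (ndm m) (quadMinus_wittIndex (ZMod 2) m hab) (rkm m), Nat.card_zmod] at h1
theorem card_L1 : Nat.card (Lm 1) = 60 := by have := card_L 1; norm_num at this ⊢; omega
theorem card_L2 : Nat.card (Lm 2) = 25920 := by have := card_L 2; norm_num [Finset.prod_range_succ] at this ⊢; omega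
theorem o4 : Nonempty (OG (qm 1) ≃* Equiv.Perm (Fin 5)) := by
  obtain ⟨e⟩ := S0824.result (F := ZMod 2) rfl
  rw [← coe_quadMinus] at e
  exact ⟨(isometryEquiv _).symm.trans e⟩
theorem simple1 : IsSimpleGroup (Lm 1) := by
  obtain ⟨e⟩ := o4
  have : (commutator (OG (qm 1))).map e.toMonoidHom = alternatingGroup (Fin 5) := by
    rw [map_commutator_eq, MonoidHom.range_eq_top.2 e.surjective, ← commutator_def,
      alternatingGroup.commutator_perm_eq (by simp)]
  exact ((e.subgroupMap _).trans (MulEquiv.subgroupCongr this)).isSimpleGroup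
theorem simple2 : IsSimpleGroup (Lm 2) := by
  have := isSimpleGroup_POmega (ndm 2) (by rw [rkm]; decide)
  have c := card_center_of_eich (ndm 2) (by rw [rkm]; decide) (exists_sing_of_finite _ (by rw [rkm]; decide))
    (eich_mem_commutator (ndm 2) (nexm 2))
  rw [if_neg fun h => h.1 rfl, card_eq_one] at c
  exact ((QuotientGroup.quotientMulEquivOfEq c).trans QuotientGroup.quotientBot).symm.isSimpleGroup

variable {m r : ℕ} {ι : Vm m →ₗ[ZMod 2] W} {π : W →ₗ[ZMod 2] Vm m} {α g : O8} {v0 : W}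

/-- An isometric embedding `ι` with left inverse `π`. -/
structure Spl (ι : Vm m →ₗ[ZMod 2] W) (π : W →ₗ[ZMod 2] Vm m) : Prop where
  pi : ∀ v, π (ι v) = v
  q : ∀ v, S (ι v) = qm m v

def St (ι : Vm m →ₗ[ZMod 2] W) (π : W →ₗ[ZMod 2] Vm m) : Subgroup O8 where
  carrier := {g | ∀ w, ι (π (g.1 w)) = g.1 w ↔ ι (π w) = w}
  one_mem' _ := Iff.rfl
  mul_mem' ha hb w := (ha _).trans (hb w)
  inv_mem' {g} ha w := by have := ha (g⁻¹.1 w); rw [OG.apply_inv_apply] at this; exact this.symm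

namespace Spl
variable (h : Spl ι π)
include h

theorem im (g : St ι π) (v : Vm m) : ι (π (g.1.1 (ι v))) = g.1.1 (ι v) := (g.2 _).2 (by rw [h.pi])
theorem B (u v : Vm m) : B (ι u) (ι v) = polar (qm m) u v := by
  rw [Co1A.B, polar, polar, ← map_add, h.q, h.q, h.q]

noncomputable def res : St ι π →* OG (qm m) := MonoidHom.mk' (fun g => ⟨LinearEquiv.ofLinearMap (π ∘ₗ g.1.1 ∘ₗ ι) (π ∘ₗ g⁻¹.1.1 ∘ₗ ι)
    (LinearMap.ext fun v => (congrArg (fun x => π (g.1.1 x)) (h.im g⁻¹ v)).trans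
      ((congrArg π (OG.apply_inv_apply g.1 _)).trans (h.pi v)))
    (LinearMap.ext fun v => (congrArg (fun x => π (g⁻¹.1.1 x)) (h.im g v)).trans
      ((congrArg π (OG.inv_apply_apply g.1 _)).trans (h.pi v))),
    mem_isom_ofQuad.2 fun v => (h.q _).symm.trans ((congrArg S (h.im g v)).trans ((OG.map_Q _ _).trans (h.q v)))⟩)
  fun a b => OG.ext fun v => congrArg (fun x => π (a.1.1 x)) (h.im b v).symm

theorem res_ap (g : St ι π) (v : Vm m) : ι ((h.res g).1 v) = g.1.1 (ι v) := h.im g v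
theorem res_eq {g : St ι π} {k : OG (qm m)} : h.res g = k ↔ ∀ v, g.1.1 (ι v) = ι (k.1 v) :=
  ⟨fun e v => by rw [← e, h.res_ap], fun e => OG.ext fun v => by rw [← h.pi (k.1 v), ← e]; rfl⟩
theorem refl_ι (v u : Vm m) : (refl S (ι v)).1 (ι u) = ι ((refl (qm m) v).1 u) := by
  rw [refl_apply, refl_apply, h.q, map_sub, map_smul, ← h.B]
theorem refl_mem (v : Vm m) : refl S (ι v) ∈ St ι π := fun w => by
  rw [refl_apply, map_sub, map_sub, map_smul, map_smul, h.pi, sub_left_inj]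

theorem res_om {K : Subgroup O8} (h1 : ∀ v, refl S (ι v) ∈ K)
    (h2 : ∀ g ∈ K, (∀ v, g.1 (ι v) = ι v) → g ∈ Om) :
    ((K ⊓ Om).subgroupOf (St ι π)).map h.res = commutator (OG (qm m)) := by
  have e : (K.subgroupOf (St ι π)).map h.res = ⊤ := eq_top_of_refl (ndm m) (nexm m) fun v _ =>
    ⟨⟨_, h.refl_mem v⟩, h1 v, h.res_eq.2 (h.refl_ι v)⟩
  have l : commutator (OG (qm m)) ≤ ((K ⊓ Om).subgroupOf (St ι π)).map h.res := by
    rw [commutator_def, ← e, ← map_commutator]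
    refine map_mono (commutator_le.2 fun a ha b hb => ⟨?_, commutator_mem_commutator (mem_top a.1) (mem_top b.1)⟩)
    exact K.mul_mem (K.mul_mem (K.mul_mem ha hb) (K.inv_mem ha)) (K.inv_mem hb)
  have d := index_dvd_of_le l
  rw [idxm] at d
  rcases (Nat.dvd_prime Nat.prime_two).1 d with d | d
  · have s : qm m (Pi.single (.inr 0) 1) = 1 := by simp [quadMinus_apply]
    obtain ⟨g, ⟨g1, g2⟩, e⟩ : refl (qm m) (Pi.single (.inr 0) 1) ∈ _ := index_eq_one.1 d ▸ mem_top _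
    have := h2 _ (K.mul_mem (h1 (Pi.single (.inr 0) 1)) g1) fun v => by
      rw [OG.mul_apply, coe_subtype, h.res_eq.1 e, h.refl_ι, ← OG.mul_apply, refl_mul_self]; rfl
    exact absurd ((Om.mul_mem_cancel_right g2).1 this) (refl_notMem ((h.q _).trans s))
  · exact (eq_of_le_of_card_ge l (by
      have a := (commutator (OG (qm m))).index_mul_card
      have b := (((K ⊓ Om).subgroupOf (St ι π)).map h.res).index_mul_card
      rw [idxm] at a; rw [d] at b; omega)).symm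

end Spl

/-- A standard element of order `r` with fixed space the image of `ι`, regular on the vectors like `v0`. -/
structure Std (r : ℕ) (ι : Vm m →ₗ[ZMod 2] W) (π : W →ₗ[ZMod 2] Vm m) (α : O8) (v0 : W) : Prop extends Spl ι π where
  fix : ∀ w, α.1 w = w ↔ ι (π w) = w
  om : α ∈ Om
  pw : α ^ r = 1
  v1 : α.1 v0 ≠ v0
  perp : ∀ v, B (ι v) v0 = 0
  orb : ∀ w, S w = S v0 → w ≠ 0 → (∀ v, B (ι v) w = 0) → ∃ i < r, w = (α ^ i).1 v0
  span : ∀ i < 8, ∃ c : Fin (r - 1) → ZMod 2, cv (2 ^ i) = ι (π (cv (2 ^ i))) + ∑ j, c j • (α ^ j.1).1 v0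
  pp : ∀ w, (∀ j : Fin (r - 1), B ((α ^ j.1).1 v0) w = 0) → ι (π w) = w
  gram : ∀ i j : Fin (r - 1), B ((α ^ i.1).1 v0) ((α ^ j.1).1 v0) = if i = j then 0 else 1
  nv : (α ^ (r - 1)).1 v0 = ∑ j : Fin (r - 1), (α ^ j.1).1 v0

theorem comm_ap (c : Commute g α) (w : W) : g.1 (α.1 w) = α.1 (g.1 w) := by rw [← OG.mul_apply, c.eq, OG.mul_apply]

theorem li_gram {k : ℕ} (hk : ∀ c : Fin k → ZMod 2, (∀ j, ∑ i, c i * (if i = j then 0 else 1) = 0) → ∀ i, c i = 0)
    {u : Fin k → W} (h : ∀ i j, B (u i) (u j) = if i = j then 0 else 1) : LinearIndependent (ZMod 2) u :=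
  Fintype.linearIndependent_iff.2 fun c e => hk c fun j => by
    have := congrArg (fun x => polarBilin S x (u j)) e
    simp only [map_sum, map_smul, LinearMap.sum_apply, LinearMap.smul_apply, polarBilin_apply_apply, map_zero,
      LinearMap.zero_apply, smul_eq_mul] at this
    exact (Finset.sum_congr rfl fun i _ => by rw [← h]).trans this

namespace Std
variable (h : Std r ι π α v0)
include h

theorem fix_ι (v : Vm m) : α.1 (ι v) = ι v := (h.fix _).2 (by rw [h.pi])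
theorem ext {g k : O8} (h1 : ∀ v, g.1 (ι v) = k.1 (ι v)) (h2 : ∀ j : Fin (r - 1), g.1 ((α ^ j.1).1 v0) = k.1 ((α ^ j.1).1 v0)) :
    g = k := O8_ext fun i hi => by
  obtain ⟨c, e⟩ := h.span i hi
  rw [e]; simp only [map_add, map_sum, map_smul, h1, h2]
theorem pow_ι (i : ℕ) (v : Vm m) : (α ^ i).1 (ι v) = ι v := by
  induction i with
  | zero => rfl
  | succ i ih => rw [pow_succ, OG.mul_apply, h.fix_ι, ih]
theorem ker (c : Commute g α) (h1 : ∀ v, g.1 (ι v) = ι v) : ∃ i : ℕ, g = α ^ i := by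
  obtain ⟨i, -, e⟩ := h.orb (g.1 v0) (OG.map_Q _ _) (OG.apply_ne_zero g fun e => h.v1 (by rw [e, map_zero])) fun v => by
    rw [← h1, Co1A.B, OG.map_polar]; exact h.perp v
  exact ⟨i, h.ext (fun v => by rw [h1, h.pow_ι]) fun j => by
    rw [comm_ap (c.pow_right j), e, comm_ap ((Commute.refl α).pow_pow _ _)]⟩
theorem le_St (c : Commute g α) : g ∈ St ι π := fun w => by
  rw [← h.fix, ← h.fix, ← comm_ap c, g.1.injective.eq_iff]
theorem refl_comm (v : Vm m) : Commute (refl S (ι v)) α := OG.ext fun w => by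
  have := OG.map_polar α (ι v) w
  rw [h.fix_ι] at this
  rw [OG.mul_apply, OG.mul_apply, refl_apply, refl_apply, map_sub, map_smul, h.fix_ι, this]
theorem cent_om : ((centralizer {α} ⊓ Om).subgroupOf (St ι π)).map h.res = commutator (OG (qm m)) :=
  h.res_om (fun v => mem_centralizer_singleton_iff.2 (h.refl_comm v))
    fun g e k => by
      obtain ⟨i, rfl⟩ := h.ker (mem_centralizer_singleton_iff.1 e) k
      exact pow_mem h.om i

theorem conj (hk : ∀ c : Fin (r - 1) → ZMod 2, (∀ j, ∑ i, c i * (if i = j then 0 else 1) = 0) → ∀ i, c i = 0)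
    (hr : Odd r) {β : O8} {U : Submodule (ZMod 2) W} (hU : ∀ w ∈ U, β.1 w = w) (hd : 2 * m + 2 ≤ finrank (ZMod 2) U)
    {u : W} (hS : S u = S v0) (hB : ∀ i j : Fin (r - 1), B ((β ^ i.1).1 u) ((β ^ j.1).1 u) = if i = j then 0 else 1)
    (hn : (β ^ (r - 1)).1 u = ∑ j : Fin (r - 1), (β ^ j.1).1 u) : ∃ σ ∈ Om, σ * β * σ⁻¹ = α := by
  obtain ⟨σ, hσ, e⟩ := nd.witt_family (li_gram hk hB) (li_gram hk h.gram) (fun i j => (h.gram i j).trans (hB i j).symm)
    fun i => ((OG.map_Q _ _).trans hS.symm).trans (OG.map_Q _ _).symm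
  let s : O8 := ⟨σ, hσ⟩
  have e1 : ∀ j ≤ r - 1, s.1 ((β ^ j).1 u) = (α ^ j).1 v0 := fun j hj => by
    rcases hj.lt_or_eq with l | rfl
    · exact e ⟨j, l⟩
    · rw [hn, h.nv, map_sum]; exact Finset.sum_congr rfl fun i _ => e i
  have p : ∀ w ∈ U, ∀ j, B ((β ^ j).1 u) w = B u w := fun w hw j => by
    induction j with
    | zero => rfl
    | succ j ih => rw [pow_succ', OG.mul_apply, ← ih, ← hU w hw, Co1A.B, OG.map_polar, hU w hw]
  have p0 : ∀ w ∈ U, B u w = 0 := fun w hw => by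
    have := congrArg (fun x => polarBilin S x w) hn
    simp only [map_sum, LinearMap.sum_apply, polarBilin_apply_apply] at this
    obtain ⟨k, rfl⟩ := hr
    rw [← p w hw (2 * k + 1 - 1)]
    refine this.trans ((Finset.sum_congr rfl fun i _ => p w hw i.1).trans ?_)
    simp [two_mul, add_smul, z2_add]
  have le : U.map (s.1 : W →ₗ[ZMod 2] W) ≤ LinearMap.range ι := by
    rintro _ ⟨w, hw, rfl⟩
    exact ⟨_, h.pp _ fun j => by
      rw [← e1 j j.2.le]; exact (OG.map_polar s _ w).trans ((p w hw j).trans (p0 w hw))⟩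
  have eq := Submodule.eq_of_le_of_finrank_le le ((LinearMap.finrank_range_le ι).trans (by
    rw [rkm, LinearEquiv.finrank_map_eq]; exact hd))
  have k : s * β * s⁻¹ = α := h.ext (fun v => by
      obtain ⟨w, hw, f⟩ : ι v ∈ U.map (s.1 : W →ₗ[ZMod 2] W) := eq ▸ ⟨v, rfl⟩
      rw [h.fix_ι, ← f]
      show s.1 (β.1 (s⁻¹.1 (s.1 w))) = _
      rw [OG.inv_apply_apply, hU w hw]; rfl) fun j => by
    rw [← OG.mul_apply α, ← pow_succ', ← e1 j j.2.le, ← e1 _ j.2, pow_succ', OG.mul_apply, OG.mul_apply, OG.inv_apply_apply]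
    rfl
  have s1 : S (ι (Pi.single (.inr 0) 1)) = 1 := (h.q _).trans (by simp [quadMinus_apply])
  rcases mem_or s1 s with k' | k'
  · exact ⟨s, k', k⟩
  · exact ⟨_, k', by rw [mul_inv_rev, ← mul_assoc, mul_assoc _ s, mul_assoc _ (s * β), k, (h.refl_comm _).eq,
      mul_inv_cancel_right]⟩

end Std

/-! ### the standard elements -/

def ι3 : Vm 2 →ₗ[ZMod 2] W where
  toFun v := Sum.elim ![v (.inl (.inl 0)), v (.inl (.inl 1)), v (.inr 0) + v (.inr 1), v (.inr 1)]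
    ![v (.inl (.inr 0)), v (.inl (.inr 1)), v (.inr 0), v (.inr 1)]
  map_add' u v := by ext (i | i) <;> fin_cases i <;> simp; abel
  map_smul' c v := by ext (i | i) <;> fin_cases i <;> simp [mul_add]
def π3 : W →ₗ[ZMod 2] Vm 2 where
  toFun w := Sum.elim (Sum.elim ![w (.inl 0), w (.inl 1)] ![w (.inr 0), w (.inr 1)])
    ![w (.inr 2) + w (.inr 3) + w (.inl 3), w (.inl 2) + w (.inr 2)]
  map_add' u v := by ext ((i | i) | i) <;> fin_cases i <;> simp <;> abel
  map_smul' c v := by ext ((i | i) | i) <;> fin_cases i <;> simp [mul_add]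
def ι5 : Vm 1 →ₗ[ZMod 2] W where
  toFun v := Sum.elim ![v (.inl (.inl 0)), 0, v (.inr 0) + v (.inr 1), v (.inr 1)] ![v (.inl (.inr 0)), 0, v (.inr 0), v (.inr 1)]
  map_add' u v := by ext (i | i) <;> fin_cases i <;> simp; abel
  map_smul' c v := by ext (i | i) <;> fin_cases i <;> simp [mul_add]
def π5 : W →ₗ[ZMod 2] Vm 1 where
  toFun w := Sum.elim (Sum.elim ![w (.inl 0)] ![w (.inr 0)]) ![w (.inr 2) + w (.inr 3) + w (.inl 3), w (.inl 2) + w (.inr 2)]
  map_add' u v := by ext ((i | i) | i) <;> fin_cases i <;> simp <;> abel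
  map_smul' c v := by ext ((i | i) | i) <;> fin_cases i <;> simp [mul_add]
def ι1 : Vm 1 →ₗ[ZMod 2] W where
  toFun v := Sum.elim ![0, v (.inl (.inl 0)), v (.inr 0), v (.inr 0) + v (.inr 1)] ![0, v (.inl (.inr 0)), v (.inr 0), v (.inr 1)]
  map_add' u v := by ext (i | i) <;> fin_cases i <;> simp; abel
  map_smul' c v := by ext (i | i) <;> fin_cases i <;> simp [mul_add]
def π1 : W →ₗ[ZMod 2] Vm 1 where
  toFun w := Sum.elim (Sum.elim ![w (.inl 1)] ![w (.inr 1)]) ![w (.inl 3) + w (.inr 3), w (.inl 2) + w (.inr 2) + w (.inr 3)]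
  map_add' u v := by ext ((i | i) | i) <;> fin_cases i <;> simp <;> abel
  map_smul' c v := by ext ((i | i) | i) <;> fin_cases i <;> simp [mul_add]

theorem spl3 : Spl ι3 π3 := ⟨by decide +kernel, fun v => by
  rw [quadPlus_apply, quadMinus_apply, Fin.sum_univ_four, Fin.sum_univ_two]; revert v; decide +kernel⟩
theorem spl5 : Spl ι5 π5 := ⟨by decide +kernel, fun v => by
  rw [quadPlus_apply, quadMinus_apply, Fin.sum_univ_four, Fin.sum_univ_one]; revert v; decide +kernel⟩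
theorem spl1 : Spl ι1 π1 := ⟨by decide +kernel, fun v => by
  rw [quadPlus_apply, quadMinus_apply, Fin.sum_univ_four, Fin.sum_univ_one]; revert v; decide +kernel⟩
theorem sum51 (w : W) : ι5 (π5 w) + ι1 (π1 w) = w := by
  obtain ⟨n, hn, rfl⟩ := cv_surj w
  revert n; decide +kernel

/-- The polar form as a computable function. -/
def bW (a b : W) : ZMod 2 := ∑ i : Fin 4, (a (.inl i) * b (.inr i) + a (.inr i) * b (.inl i))
theorem B_eq (a b : W) : B a b = bW a b := polar_quadPlus _ _ a b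
theorem perp51 (w : W) : ι1 (π1 w) = w ↔ ∀ v, B (ι5 v) w = 0 := by
  obtain ⟨n, hn, rfl⟩ := cv_surj w
  simp only [B_eq]; revert n; decide +kernel

noncomputable def rr (l : List ℕ) : O8 := (l.map fun a => refl S (cv a)).prod
def rN (l : List ℕ) (x : ℕ) : ℕ := l.foldr rf x
theorem rr_cv {l : List ℕ} (h : ∀ a ∈ l, a < 256 ∧ qN a = 1) {x : ℕ} (hx : x < 256) :
    rN l x < 256 ∧ (rr l).1 (cv x) = cv (rN l x) := by
  induction l with
  | nil => exact ⟨hx, rfl⟩
  | cons a l ih =>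
    obtain ⟨⟨h1, h2⟩, h3⟩ := List.forall_mem_cons.1 h
    exact ⟨rf_lt h1 (ih h3).1, by rw [rr, List.map_cons, List.prod_cons, OG.mul_apply, ← rr, (ih h3).2, refl_cv h1 h2 (ih h3).1]; rfl⟩
theorem rr_pow {l : List ℕ} (h : ∀ a ∈ l, a < 256 ∧ qN a = 1) (i : ℕ) {x : ℕ} (hx : x < 256) :
    (rN l)^[i] x < 256 ∧ (rr l ^ i).1 (cv x) = cv ((rN l)^[i] x) := by
  induction i with
  | zero => exact ⟨hx, rfl⟩
  | succ i ih => rw [Function.iterate_succ_apply', pow_succ', OG.mul_apply, ih.2]; exact rr_cv h ih.1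

theorem std_of {l : List ℕ} {x : ℕ} (hs : Spl ι π) (h : ∀ a ∈ l, a < 256 ∧ qN a = 1) (om : rr l ∈ Om) (hx : x < 256)
    (h1 : ∀ n < 256, rN l n = n ↔ ι (π (cv n)) = cv n) (h2 : ∀ i < 8, (rN l)^[r] (2 ^ i) = 2 ^ i) (h3 : rN l x ≠ x)
    (h4 : ∀ v, bW (ι v) (cv x) = 0)
    (h5 : ∀ n < 256, qN n = qN x → n ≠ 0 → (∀ v, bW (ι v) (cv n) = 0) → ∃ i < r, n = (rN l)^[i] x)
    (h6 : ∀ i < 8, ∃ c : Fin (r - 1) → ZMod 2, cv (2 ^ i) = ι (π (cv (2 ^ i))) + ∑ j, c j • cv ((rN l)^[j.1] x))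
    (h7 : ∀ n < 256, (∀ j : Fin (r - 1), bW (cv ((rN l)^[j.1] x)) (cv n) = 0) → ι (π (cv n)) = cv n)
    (h8 : ∀ i j : Fin (r - 1), bW (cv ((rN l)^[i.1] x)) (cv ((rN l)^[j.1] x)) = if i = j then 0 else 1)
    (h9 : cv ((rN l)^[r - 1] x) = ∑ j : Fin (r - 1), cv ((rN l)^[j.1] x)) : Std r ι π (rr l) (cv x) where
  toSpl := hs
  fix w := by
    obtain ⟨n, hn, rfl⟩ := cv_surj w
    rw [(rr_cv h hn).2, ← h1 n hn]
    exact ⟨cv_inj (rr_cv h hn).1 hn, congrArg cv⟩
  om := om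
  pw := O8_ext fun i hi => by rw [(rr_pow h r (pow_lt8 hi)).2, h2 i hi]; rfl
  v1 e := h3 (cv_inj (rr_cv h hx).1 hx ((rr_cv h hx).2.symm.trans e))
  perp v := (B_eq _ _).trans (h4 v)
  orb w a b c := by
    obtain ⟨n, hn, rfl⟩ := cv_surj w
    rw [S_cv hn, S_cv hx] at a
    have : ∀ a < 2, ∀ b < 2, ((a : ℕ) : ZMod 2) = (b : ℕ) → a = b := by decide
    obtain ⟨i, hi, rfl⟩ := h5 n hn (this _ (qN_lt _) _ (qN_lt _) a) (by rintro rfl; exact b cv_zero) fun v => (B_eq _ _).symm.trans (c v)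
    exact ⟨i, hi, (rr_pow h i hx).2.symm⟩
  span := by simpa only [(rr_pow h _ hx).2] using h6
  pp w := by
    obtain ⟨n, hn, rfl⟩ := cv_surj w
    simpa only [(rr_pow h _ hx).2, B_eq] using h7 n hn
  gram := by simpa only [(rr_pow h _ hx).2, B_eq] using h8
  nv := by simpa only [(rr_pow h _ hx).2] using h9

noncomputable abbrev α3 : O8 := rr [76, 136]
noncomputable abbrev α5 : O8 := rr [34, 78, 196, 76]

theorem std3 : Std 3 ι3 π3 α3 (cv 76) := std_of spl3 (by decide) (by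
    simpa [rr] using refl_mul_mem ((S1 (n := 76) (by decide)).2 rfl) ((S1 (n := 136) (by decide)).2 rfl)) (by decide)
  (by decide +kernel) (by decide +kernel) (by decide +kernel) (by decide +kernel) (by decide +kernel) (by decide +kernel)
  (by decide +kernel) (by decide +kernel) (by decide +kernel)
theorem std5 : Std 5 ι5 π5 α5 (cv 2) := std_of spl5 (by decide) (by
    simpa [rr, mul_assoc] using Om.mul_mem (refl_mul_mem ((S1 (n := 34) (by decide)).2 rfl) ((S1 (n := 78) (by decide)).2 rfl))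
      (refl_mul_mem ((S1 (n := 196) (by decide)).2 rfl) ((S1 (n := 76) (by decide)).2 rfl))) (by decide)
  (by decide +kernel) (by decide +kernel) (by decide +kernel) (by decide +kernel) (by decide +kernel) (by decide +kernel)
  (by decide +kernel) (by decide +kernel) (by decide +kernel)

end Cfsg.Agent.Co1R
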