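import Cfsg.Agent.Co1R.O
import Cfsg.Agent.Mon.Odd
import Cfsg.Agent.Co1T.A3

/-! Centralisers of elements of order 3 and 5 in groups with a frame: conjugacy (`conj3`, `conj5`, `Fr.conj_of`) and the
large extraspecial setting in `C(a)/⟨a⟩` (`setting`) (helper23). -/

set_option autoImplicit false
set_option linter.unusedSectionVars false
set_option linter.unusedSimpArgs false

namespace Cfsg.Agent.Co1R

open Cfsg.Agent.Geom Cfsg.Agent.Geom.Formed Cfsg.Agent.Co1A Cfsg.Agent.BG Cfsg.Agent.LES Cfsg.Agent.Mon QuadraticMap Subgroup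
  Module

theorem Bg (g : O8) (a b : W) : B (g.1 a) (g.1 b) = B a b := OG.map_polar g a b

theorem ex_w {β : O8} (h : β * β ≠ 1) : ∃ w, B w (β.1 w) = 1 := by
  by_contra! k
  have k' : ∀ w, B w (β.1 w) = 0 := fun w => (z2 _).resolve_right (k w)
  refine h (OG.ext fun w => ?_)
  rw [OG.mul_apply, ← sub_eq_zero, W_sub]
  refine nd _ fun x => ?_
  have := k' (β.1 w + x)
  rw [map_add, B_add, B_add', B_add', k', k', zero_add, add_zero, B_comm x, Bg β w, ← B_add'] at this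
  exact this

theorem w3 (a b c : W) : c + a = a + b + (b + c + 0) := funext fun i =>
  (by decide : ∀ a b c : ZMod 2, c + a = a + b + (b + c + 0)) _ _ _
theorem w5 (a b c d e : W) : e + b = a + c + (b + d) + (c + e) + (d + a) := funext fun i =>
  (by decide : ∀ a b c d e : ZMod 2, e + b = a + c + (b + d) + (c + e) + (d + a)) _ _ _ _ _
theorem w5' (a b c d e : W) : e + a + b + c = a + b + c + d + (b + c + d + e) + (c + d + e + a) + (d + e + a + b) :=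
  funext fun i => (by decide : ∀ a b c d e : ZMod 2,
    e + a + b + c = a + b + c + d + (b + c + d + e) + (c + d + e + a) + (d + e + a + b)) _ _ _ _ _

theorem gram_of {β : O8} {u : W} {n : ℕ} (h : ∀ k, 0 < k → k < n → B u ((β ^ k).1 u) = 1) (i j : Fin n) :
    B ((β ^ i.1).1 u) ((β ^ j.1).1 u) = if i = j then 0 else 1 := by
  have k : ∀ i j : ℕ, i < j → j < n → B ((β ^ i).1 u) ((β ^ j).1 u) = 1 := fun i j l l' => by
    obtain ⟨k, rfl⟩ := Nat.exists_eq_add_of_le l.le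
    rw [pow_add, OG.mul_apply, Bg, h k (by omega) (by omega)]
  rcases lt_trichotomy i j with l | rfl | l
  · rw [if_neg l.ne, k _ _ l j.2]
  · rw [if_pos rfl, B_self]
  · rw [if_neg l.ne', B_comm, k _ _ l i.2]

theorem conj3 {β : O8} (h3 : β ^ 3 = 1) (h1 : β ≠ 1) {U : Submodule (ZMod 2) W} (hU : ∀ w ∈ U, β.1 w = w)
    (hd : 6 ≤ finrank (ZMod 2) U) : ∃ σ ∈ Om, σ * β * σ⁻¹ = α3 := by
  obtain ⟨a, ab⟩ := ex_w (β := β) fun e => h1 (by rwa [pow_succ, pow_two, e, one_mul] at h3)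
  have ca : β.1 (β.1 (β.1 a)) = a := congrArg (fun g : O8 => g.1 a) h3
  have bc := (Bg β _ _).trans ab
  have ac := (Bg β _ _).trans bc
  rw [ca, B_comm] at ac
  refine std3.conj (by decide) (by decide) hU hd (u := a + β.1 a) ?_ (gram_of fun k h0 hk => ?_) ?_
  · rw [S_add, OG.map_Q, z2_add, ab, (S1 (by decide)).2 rfl, zero_add]
  · obtain rfl : k = 1 := by omega
    simp only [pow_one, map_add, B_add, B_add', B_self, ab, bc, ac]; rfl
  · simp only [Fin.sum_univ_succ, Fin.sum_univ_zero, pow_succ, pow_zero, one_mul, OG.mul_apply, map_add, Fin.val_zero,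
      Fin.val_succ, ca, Nat.add_one_sub_one]
    exact w3 _ _ _

theorem conj5 {β : O8} (h5 : β ^ 5 = 1) (h1 : β ≠ 1) {U : Submodule (ZMod 2) W} (hU : ∀ w ∈ U, β.1 w = w)
    (hd : 4 ≤ finrank (ZMod 2) U) : ∃ σ ∈ Om, σ * β * σ⁻¹ = α5 := by
  obtain ⟨a, ab⟩ := ex_w (β := β) fun e => h1 (by
    rwa [show β ^ 5 = β * β * (β * β) * β by simp only [pow_succ, pow_zero, one_mul, mul_assoc], e, one_mul, one_mul] at h5)
  have ea : β.1 (β.1 (β.1 (β.1 (β.1 a)))) = a := congrArg (fun g : O8 => g.1 a) h5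
  obtain ⟨k, ac⟩ : ∃ k, B a (β.1 (β.1 a)) = k := ⟨_, rfl⟩
  have bc := (Bg β _ _).trans ab
  have cd := (Bg β _ _).trans bc
  have de := (Bg β _ _).trans cd
  have ae := (Bg β _ _).trans de
  have bd := (Bg β _ _).trans ac
  have ce := (Bg β _ _).trans bd
  have ad := (Bg β _ _).trans ce
  have be := (Bg β _ _).trans ad
  rw [ea, B_comm] at ae ad be
  have hn : ∀ u : W, β.1 (β.1 (β.1 (β.1 u))) = u + β.1 u + β.1 (β.1 u) + β.1 (β.1 (β.1 u)) →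
      (β ^ (5 - 1)).1 u = ∑ j : Fin (5 - 1), (β ^ j.1).1 u := fun u e => e.trans (by rw [Fin.sum_univ_four]; rfl)
  have s0 : S (cv 2) = 0 := (S0 (by decide)).2 rfl
  rcases z2 k with rfl | rfl
  · refine std5.conj (by decide) (by decide) hU hd (u := a + β.1 (β.1 a)) ?_ (gram_of fun k h0 hk => ?_) (hn _ ?_)
    · rw [S_add, OG.map_Q, OG.map_Q, z2_add, ac, s0, zero_add]
    · interval_cases k <;> simp only [pow_succ, pow_zero, one_mul, OG.mul_apply, map_add, B_add, B_add', B_self, ea, ab, ac,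
        ad, ae, bc, bd, be, cd, ce, de, B_comm _ a, B_comm (β.1 (β.1 a)) (β.1 a)] <;> rfl
    · simp only [map_add, ea]
      exact w5 _ _ _ _ _
  · refine std5.conj (by decide) (by decide) hU hd (u := a + β.1 a + β.1 (β.1 a) + β.1 (β.1 (β.1 a))) ?_
      (gram_of fun k h0 hk => ?_) (hn _ ?_)
    · simp only [S_add, OG.map_Q, B_add', ab, ac, ad, bc, bd, cd, s0]
      generalize S a = s; revert s; decide
    · interval_cases k <;> simp only [pow_succ, pow_zero, one_mul, OG.mul_apply, map_add, B_add, B_add', B_self, ea, ab, ac,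
        ad, ae, bc, bd, be, cd, ce, de, B_comm _ a, B_comm (β.1 (β.1 a)) (β.1 a), B_comm (β.1 (β.1 (β.1 a))) (β.1 a),
        B_comm (β.1 (β.1 (β.1 a))) (β.1 (β.1 a))] <;> rfl
    · simp only [map_add, ea]
      exact w5' _ _ _ _ _

variable {G : Type*} [Group G] [Finite G] {z a b : G} {Q : Subgroup G} {p : G → W} {μ : C1[z] →* O8}
  {m r : ℕ} {ι : Vm m →ₗ[ZMod 2] W} {π : W →ₗ[ZMod 2] Vm m} {α : O8} {v0 : W}

theorem conj_coset (hQ : IsPGroup 2 Q) (hb : b ∈ N[Q]) (hp : r.Prime) (p2 : r ≠ 2) (ha : a ^ r = 1) (hb' : b ^ r = 1)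
    (h : a * b⁻¹ ∈ Q) : ∃ q ∈ Q, q * b * q⁻¹ = a := by
  have : Fact r.Prime := ⟨hp⟩
  have : Fact (Nat.Prime 2) := ⟨Nat.prime_two⟩
  let f : Equiv.Perm G := Equiv.mulLeft a * Equiv.mulRight b⁻¹
  have k : ∀ y, f y ∈ Q ↔ y ∈ Q := fun y => by
    rw [← conj_mem_iff_of_norm (x := y) hb, ← mul_mem_cancel_left (y := b * y * b⁻¹) h]
    simp [f, mul_assoc]
  let := Fintype.ofFinite {y : G // y ∈ Q}
  obtain ⟨y, hy⟩ := Equiv.Perm.exists_fixed_point_of_prime (p := r) (n := 1) (σ := f.subtypePerm k) (by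
      obtain ⟨n, hn⟩ := IsPGroup.iff_card.1 hQ
      rw [← Nat.card_eq_fintype_card]
      exact fun e => p2 ((Nat.prime_dvd_prime_iff_eq hp Nat.prime_two).1 (hp.dvd_of_dvd_pow (hn ▸ e)))) (by
      rw [pow_one, Equiv.Perm.subtypePerm_pow]
      ext y
      have : f ^ r = 1 := by
        rw [Commute.mul_pow (Equiv.ext fun x => by simp [mul_assoc]), Equiv.pow_mulLeft, Equiv.pow_mulRight, ha, inv_pow, hb']
        ext; simp
      exact congrArg (fun f : Equiv.Perm G => f y.1) this)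
  have : a * (y.1 * b⁻¹) = y.1 := congrArg Subtype.val hy
  exact ⟨y, y.2, by rw [mul_inv_eq_iff_eq_mul, ← mul_inv_eq_iff_eq_mul.1 ((mul_assoc _ _ _).trans this)]⟩

section
variable (F : Fr z Q p μ)
include F

theorem fix_iff (ho : Odd (orderOf a)) (ha : a ∈ C1[z]) {q : G} (hq : q ∈ Q) : (μ ⟨a, ha⟩).1 (p q) = p q ↔ Commute a q := by
  rw [← F.act ⟨a, ha⟩ q hq, eq_comm, F.eq_iff hq (F.conj ⟨a, ha⟩ hq)]
  refine ⟨fun h => h.elim cj_eq_iff_comm.1 fun e => ?_, fun h => .inl (cj_eq_iff_comm.2 h)⟩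
  have c : Commute (a * a) q := cj_eq_iff_comm.1 (by
    rw [show a * a * q * (a * a)⁻¹ = a * (a * q * a⁻¹) * a⁻¹ by group, e,
      show a * (q * z) * a⁻¹ = a * q * a⁻¹ * (a * z * a⁻¹) by group, e, cj_eq_iff_comm.2 (mem_cent1.1 ha), mul_assoc, F.es.zz,
      mul_one])
  obtain ⟨k, hk⟩ := ho
  have := c.pow_left (k + 1)
  rwa [← pow_two, ← pow_mul, show 2 * (k + 1) = orderOf a + 1 by omega, pow_succ, pow_orderOf_eq_one, one_mul] at this

theorem mu_ne (hp : r.Prime) (p2 : r ≠ 2) (ho : orderOf a = r) (ha : a ∈ C1[z]) : μ ⟨a, ha⟩ ^ r = 1 ∧ μ ⟨a, ha⟩ ≠ 1 :=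
  ⟨by rw [← map_pow, ← map_one μ]; exact congrArg μ (Subtype.ext (ho ▸ pow_orderOf_eq_one a)), fun e =>
    hp.ne_one (ho ▸ orderOf_eq_one_iff.2 (inf_odd F.es.pg (ho ▸ hp.odd_of_ne_two p2) (mem_zpowers a) ((F.ker _).1 e)))⟩

/-- The fixed space of `a` has dimension at least `d` if `|C_Q(a)| ≥ 2 ^ (d + 1)`. -/
theorem fixU (ha : a ∈ C1[z]) {d : ℕ} (h : 2 * 2 ^ d ≤ #(C1[a] ⊓ Q : Subgroup G)) :
    ∃ U : Submodule (ZMod 2) W, (∀ w ∈ U, (μ ⟨a, ha⟩).1 w = w) ∧ d ≤ finrank (ZMod 2) U := by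
  refine ⟨F.im C1[a], ?_, ?_⟩
  · rintro _ ⟨x, hx, rfl⟩
    rw [← F.act _ x hx.2, cj_eq_iff_comm.2 (mem_cent1.1 hx.1).symm]
  · rw [← F.card_im (mem_cent1.2 (mem_cent1.1 ha).symm)] at h
    exact (Nat.pow_le_pow_iff_right (by decide)).1 (Nat.le_of_mul_le_mul_left h (by decide))

theorem conj_of (hp : r.Prime) (p2 : r ≠ 2) (ha : a ∈ C1[z]) (hb : b ∈ C1[z]) (oa : a ^ r = 1) (ob : b ^ r = 1)
    (h1 : ∃ σ ∈ Om, σ * μ ⟨a, ha⟩ * σ⁻¹ = α) (h2 : μ ⟨b, hb⟩ = α) : ∃ h ∈ C1[z], h * b * h⁻¹ = a := by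
  obtain ⟨σ, hσ, e⟩ := h1
  obtain ⟨h, rfl⟩ := F.lift hσ
  obtain ⟨q, hq, f⟩ := conj_coset F.es.pg (F.le.nQ b (mem_cent1.1 hb)) hp p2 (a := h * a * h.1⁻¹) (by rw [conj_pow, oa]; simp) ob
    ((F.ker (h * ⟨a, ha⟩ * h⁻¹ * ⟨b, hb⟩⁻¹)).1 (by simp only [map_mul, map_inv, e, h2, mul_inv_cancel]))
  exact ⟨h.1⁻¹ * q, mul_mem (inv_mem h.2) (F.Q_le hq), by
    rw [show h.1⁻¹ * q * b * (h.1⁻¹ * q)⁻¹ = h.1⁻¹ * (q * b * q⁻¹) * h by group, f]; group⟩

theorem ex_std (h : Std r ι π α v0) (hp : r.Prime) {k : ℕ} (hk : 4 * k % r = 1) :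
    ∃ (a : G) (ha : a ∈ C1[z]), orderOf a = r ∧ μ ⟨a, ha⟩ = α := by
  have : Fact r.Prime := ⟨hp⟩
  obtain ⟨g, e⟩ := F.lift h.om
  have q : (g ^ r).1 ∈ Q := (F.ker _).1 (by rw [map_pow, e, h.pw])
  have e1 : μ (g ^ (4 * k)) = α := by rw [map_pow, e, pow_eq_pow_mod _ h.pw, hk, pow_one]
  refine ⟨_, (g ^ (4 * k)).2, orderOf_eq_prime ?_ fun f => h.v1 ?_, e1⟩
  · rw [coe_pow, ← pow_mul, mul_comm, pow_mul, pow_mul, ← coe_pow, show 4 = 2 * 2 from rfl, pow_mul, pow_two, pow_two]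
    rcases F.es.sq _ q with f | f <;> rw [f] <;> simp [F.es.zz]
  · rw [← e1, show g ^ (4 * k) = 1 from Subtype.ext f, map_one]; rfl

variable (h : Std r ι π α v0) (ha : a ∈ C1[z]) (e : μ ⟨a, ha⟩ = α) (hp : r.Prime) (p2 : r ≠ 2) (ho : orderOf a = r)
include h e hp p2 ho

theorem ex_ι (v : Vm m) : ∃ q ∈ Q ⊓ C[zpowers a], p q = ι v :=
  let ⟨q, hq, f⟩ := F.surj (ι v)
  ⟨q, ⟨hq, mem_CB.2 ((fix_iff F (ho ▸ hp.odd_of_ne_two p2) ha hq).1 (by rw [e, f, h.fix_ι]))⟩, f⟩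

theorem fix_ι {y : C1[z]} (hy : ∀ q ∈ Q ⊓ C[zpowers a], y.1 * q * y.1⁻¹ = q ∨ y.1 * q * y.1⁻¹ = q * z) (v : Vm m) :
    (μ y).1 (ι v) = ι v := by
  obtain ⟨q, hq, f⟩ := ex_ι F h ha e hp p2 ho v
  rw [← f, ← F.act y q hq.1, eq_comm, F.eq_iff hq.1 (F.conj y hq.1)]
  exact hy q hq

theorem card_QC : #(Q ⊓ C[zpowers a] : Subgroup G) = 2 ^ (2 * (m + 1) + 1) := by
  have : F.im C[zpowers a] = LinearMap.range ι := le_antisymm (by
    rintro _ ⟨q, hq, rfl⟩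
    exact ⟨_, (h.fix _).1 (e ▸ (fix_iff F (ho ▸ hp.odd_of_ne_two p2) ha hq.2).2 (mem_CB.1 hq.1))⟩) (by
    rintro _ ⟨v, rfl⟩
    obtain ⟨q, hq, f⟩ := ex_ι F h ha e hp p2 ho v
    exact ⟨q, ⟨hq.2, hq.1⟩, f⟩)
  rw [inf_comm, ← F.card_im (mem_CB.2 (mem_cent1.1 ha)), this,
    LinearMap.finrank_range_of_inj (Function.LeftInverse.injective h.pi), rkm]
  ring

theorem setting (hf : ∃ u ∈ Q, IsConj z u ∧ u ≠ z) [IsSimpleGroup (Lm m)] (h3 : 3 ∣ Nat.card (Lm m)) (m0 : m ≠ 0)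
    [((zpowers a).subgroupOf C[zpowers a]).Normal] :
    ∃ (zD : z ∈ C[zpowers a]) (_ : (Rb C[zpowers a] (zpowers a) zD Q).Normal),
      IsExtraspecialCentralizerSetting (zb C[zpowers a] (zpowers a) zD) (Rb C[zpowers a] (zpowers a) zD Q) (m + 1) ∧
      Nonempty (C1[zb C[zpowers a] (zpowers a) zD] ⧸ Rb C[zpowers a] (zpowers a) zD Q ≃*
        Omega (ZMod 2) (quadFormMinus m (ZMod 2) 1 1)) := by
  have oa : Odd (orderOf a) := ho ▸ hp.odd_of_ne_two p2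
  have ap : a ^ r = 1 := ho ▸ pow_orderOf_eq_one a
  have zD : z ∈ C[zpowers a] := mem_CB.2 (mem_cent1.1 ha)
  have hA := odd_hA oa F.es.zz zD
  have hN := Rb_normal (zD := zD) F.le hA
  have cd := card_QC F h ha e hp p2 ho
  have hE : ES (Q ⊓ C[zpowers a]) z := (F.es.cent_odd (zpowers_le.2 (F.le.nQ a (mem_cent1.1 ha)))
    (by rwa [Nat.card_zpowers])).resolve_left fun e => by
      rw [e, Nat.card_zpowers, F.es.z2, pow_succ] at cd
      have := Nat.one_lt_two_pow (n := 2 * (m + 1)) (by omega); omega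
  let ν : ↥(C[zpowers a] ⊓ C1[z]) →* O8 := μ.comp (inclusion inf_le_right)
  have c : ∀ y, Commute (ν y) α := fun y => e ▸ Commute.map (Subtype.ext (mem_CB.1 y.2.1).symm.eq) μ
  let f : ↥(C[zpowers a] ⊓ C1[z]) →* Lm m := (h.res.comp (ν.codRestrict _ fun y => h.le_St (c y))).codRestrict _ fun y =>
    h.cent_om.le ⟨⟨ν y, h.le_St (c y)⟩, ⟨mem_centralizer_singleton_iff.2 (c y), F.mem _⟩, rfl⟩
  have f1 : ∀ y, f y = 1 ↔ ∀ v, (ν y).1 (ι v) = ι v := fun y => Subtype.ext_iff.trans h.res_eq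
  have fs : Function.Surjective f := fun ⟨k, hk⟩ => by
    obtain ⟨g, ⟨g1, g2⟩, rfl⟩ := h.cent_om.ge hk
    obtain ⟨x, hx⟩ := F.lift g2
    obtain ⟨q, hq, k⟩ := fix_coset F.es.pg (F.le.nQ a (mem_cent1.1 ha)) hp p2 ap (c := x.1)
      ((F.ker (x⁻¹ * (⟨a, ha⟩ * x * ⟨a, ha⟩⁻¹))).1 (by
        simp only [map_mul, map_inv, e, hx, ← mem_centralizer_singleton_iff.1 g1]; group))
    refine ⟨⟨x * q, mem_CB.2 k, mul_mem x.2 (F.Q_le hq)⟩, Subtype.ext (congrArg h.res (Subtype.ext ?_))⟩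
    exact (map_mul μ x ⟨q, F.Q_le hq⟩).trans (by rw [(F.ker ⟨q, F.Q_le hq⟩).2 hq, mul_one, hx]; rfl)
  have : Fact (Nat.Prime 3) := ⟨Nat.prime_three⟩
  obtain ⟨t, ht⟩ := exists_prime_orderOf_dvd_card' 3 h3
  obtain ⟨y, rfl⟩ := fs t
  have t1 : f y ≠ 1 := fun e => by simp [e] at ht
  obtain ⟨l⟩ := omega_m m
  obtain ⟨hs, e, -⟩ := quot_setting (zD := zD) (w := m + 1) F.le hA
    (fun e => F.es.z1 (inf_odd F.es.pg oa e F.es.zQ))
    (fun x hx h => (hE.cen x hx h).imp (fun e : x = 1 => by simp [e]) fun e => by simp [e]) hE.nab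
    (by rw [cd, show zpowers a ⊓ (Q ⊓ C[zpowers a]) = ⊥ from
        eq_bot_iff.2 fun τ h => inf_odd F.es.pg oa h.1 h.2.1, card_bot, one_mul]) f fs (fun x => by
      rw [f1]
      refine ⟨fun k => ?_, fun ⟨q, hq, i, k⟩ v => ?_⟩
      · obtain ⟨i, k⟩ := h.ker (c x) k
        have ai := pow_mem (mem_zpowers a) i
        exact ⟨x * (a ^ i)⁻¹, ⟨(F.ker (⟨x, x.2.2⟩ * (⟨a, ha⟩ ^ i)⁻¹)).1 (by
          rw [map_mul, map_inv, map_pow, e, ← k]; exact mul_inv_cancel _),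
          C[zpowers a].mul_mem x.2.1 (inv_mem ((abelian_zpowers a).cent ai))⟩, by simp⟩
      · have : ν x = μ ⟨q, F.Q_le hq.1⟩ * μ ⟨a, ha⟩ ^ i := by
          rw [← map_zpow, ← map_mul]; exact congrArg μ (Subtype.ext (eq_inv_mul_iff_mul_eq.1 k).symm)
        obtain ⟨j, k⟩ : α ^ i ∈ Submonoid.powers α := mem_powers_iff_mem_zpowers.2 ⟨i, rfl⟩
        rw [this, (F.ker _).2 hq.1, one_mul, e, ← k]; exact h.pow_ι j v) y
    (fun K hK n => hK.eq_bot_or_eq_top.resolve_left n ▸ mem_top _)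
    (fun n k => absurd (Nat.prime_three.dvd_of_dvd_pow (ht ▸ orderOf_dvd_of_pow_eq_one k)) (by decide))
    (by
      by_contra! k
      refine t1 ((f1 y).2 (fix_ι F h ha e hp p2 ho (y := ⟨y, y.2.2⟩) fun q hq => ?_))
      have m := F.conj ⟨y, y.2.2⟩ hq.1
      by_cases k' : q⁻¹ * (y * q * y.1⁻¹) ∈ zpowers a
      · exact .inl (inv_mul_eq_one.1 (inf_odd F.es.pg oa k' (Q.mul_mem (Q.inv_mem hq.1) m))).symm
      · exact .inr (inv_mul_eq_one.1 (inf_odd F.es.pg oa (k q hq k')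
          (Q.mul_mem (Q.inv_mem (Q.mul_mem hq.1 F.es.zQ)) m))).symm)
    (by
      obtain ⟨n, rfl⟩ := Nat.exists_eq_succ_of_ne_zero m0
      obtain ⟨s, hs, k⟩ := ex_ι F h ha e hp p2 ho (Pi.single (.inl (.inl 0)) 1)
      have s0 : p s ≠ 0 := fun e => by
        have := congrFun ((h.pi _).symm.trans ((congrArg π (k.symm.trans e)).trans (map_zero π))) (.inl (.inl 0))
        simp at this
      obtain ⟨x, rfl⟩ := isConj_iff.1 (F.fused hf hs.1 (by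
        rw [k, h.q, quadMinus_apply]; simp [Pi.single_apply]) s0)
      have ne : x * z * x⁻¹ ≠ z := fun e => s0 (by rw [e, F.pz])
      obtain ⟨d, h3, h4⟩ := Pair.nwc_odd (F.le.pair (by rw [F.card]; decide) hs.1 ne) hp p2 ap (mem_cent1.1 ha) (mem_CB.1 hs.2)
      exact ⟨d, mem_CB.2 h3, h4 ▸ hs.1, h4 ▸ ne⟩)
  exact ⟨zD, hN, hs, ⟨e.trans l⟩⟩

end

end Cfsg.Agent.Co1R
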